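import Cfsg.Agent.KGV.B.Defs

set_option autoImplicit false

namespace CL.KGB
open Polynomial Cfsg CL.VCh TensorProduct

variable {p : ℕ} [Fact p.Prime]
variable {L : Type} [Field L] [Fintype L] [Algebra (ZMod p) L]

theorem phi_one (D : Dat p) (l : L) : phi D l 1 = 1 := by
  simp [phi]

theorem phi_mul (D : Dat p) (l : L) (P Q : L[X]) (hP : P.Monic) (hQ : Q.Monic) :
    phi D l (P * Q) = phi D l P * phi D l Q := by
  unfold phi
  rw [← Finset.prod_mul_distrib]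
  refine Finset.prod_congr rfl fun σ _ => ?_
  rw [Polynomial.map_mul, roots_mul ((hP.map _).mul (hQ.map _)).ne_zero, Multiset.map_add,
    Multiset.prod_add]

namespace Sk

omit [Fintype L] in
theorem deg_lt {k : ℕ} (c : Fin k → L) : (∑ i : Fin k, C (c i) * X ^ (i : ℕ) : L[X]).degree < k :=
  degree_sum_fin_lt c

omit [Fintype L] in
theorem monic {k : ℕ} (c : Fin k → L) : (X ^ k + ∑ i : Fin k, C (c i) * X ^ (i : ℕ) : L[X]).Monic :=
  monic_X_pow_add (deg_lt c)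

omit [Fintype L] in
theorem natDeg {k : ℕ} (c : Fin k → L) :
    (X ^ k + ∑ i : Fin k, C (c i) * X ^ (i : ℕ) : L[X]).natDegree = k := by
  have h : (X ^ k + ∑ i : Fin k, C (c i) * X ^ (i : ℕ) : L[X]).degree = k := by
    rw [degree_add_eq_left_of_degree_lt (by rw [degree_X_pow]; exact deg_lt c), degree_X_pow]
  exact natDegree_eq_of_degree_eq_some h

omit [Fintype L] in
theorem coe {k : ℕ} (c : Fin k → L) (j : Fin k) :
    (X ^ k + ∑ i : Fin k, C (c i) * X ^ (i : ℕ) : L[X]).coeff j = c j := by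
  rw [coeff_add, coeff_X_pow, if_neg j.2.ne, zero_add, finset_sum_coeff, Finset.sum_eq_single j]
  · simp
  · intro i _ hi
    rw [coeff_C_mul, coeff_X_pow, if_neg (fun h => hi (Fin.ext h.symm)), mul_zero]
  · simp

omit [Fintype L] in
theorem as_mk {k : ℕ} {P : L[X]} (hP : P.Monic) (hk : P.natDegree = k) :
    X ^ k + ∑ i : Fin k, C (P.coeff i) * X ^ (i : ℕ) = P := by
  subst hk
  conv_rhs => rw [hP.as_sum]
  rw [Finset.sum_range (fun i => C (P.coeff i) * X ^ i)]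

theorem reidx (τ : Equiv.Perm {P : L[X] // P.Monic})
    (hτ : ∀ P, (τ P).1.natDegree = P.1.natDegree) (f : L[X] → ℂ) (k : ℕ) :
    ∑ c : Fin k → L, f (τ ⟨X ^ k + ∑ i : Fin k, C (c i) * X ^ (i : ℕ), monic c⟩).1 =
      ∑ c : Fin k → L, f (X ^ k + ∑ i : Fin k, C (c i) * X ^ (i : ℕ)) := by
  let s : (Fin k → L) → Fin k → L := fun c i =>
    (τ ⟨X ^ k + ∑ i : Fin k, C (c i) * X ^ (i : ℕ), monic c⟩).1.coeff i
  have hs : ∀ c, X ^ k + ∑ i : Fin k, C (s c i) * X ^ (i : ℕ) =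
      (τ ⟨X ^ k + ∑ i : Fin k, C (c i) * X ^ (i : ℕ), monic c⟩).1 := fun c =>
    as_mk (τ _).2 ((hτ _).trans (natDeg c))
  have hi : Function.Injective s := fun a b h => by
    have h1 := (hs a).symm.trans ((congrArg
      (fun c : Fin k → L => (X ^ k + ∑ i : Fin k, C (c i) * X ^ (i : ℕ) : L[X])) h).trans (hs b))
    have h2 := congrArg Subtype.val (τ.injective (Subtype.ext h1))
    funext j
    rw [← coe a j, ← coe b j]
    exact congrArg (fun P : L[X] => P.coeff j) h2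
  exact Fintype.sum_bijective s (Finite.injective_iff_bijective.1 hi) _ _ fun c => by rw [hs]

omit [Fintype L] in
theorem phi0_mk (ψ : AddChar L ℂ) (χ : MulChar L ℂ) {k : ℕ} (c : Fin (k + 1) → L) :
    phi0 ψ χ (X ^ (k + 1) + ∑ i : Fin (k + 1), C (c i) * X ^ (i : ℕ)) =
      ψ (-c (Fin.last k)) * χ ((-1) ^ (k + 1) * c 0) := by
  unfold phi0
  rw [nextCoeff_of_natDegree_pos (by rw [natDeg]; omega), natDeg, ← coe c (Fin.last k), ← coe c 0]
  rfl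

theorem van {ψ : AddChar L ℂ} (hψ : ψ ≠ 1) (χ : MulChar L ℂ) {k : ℕ} (hk : 2 ≤ k) :
    ∑ c : Fin k → L, phi0 ψ χ (X ^ k + ∑ i : Fin k, C (c i) * X ^ (i : ℕ)) = 0 := by
  classical
  obtain ⟨k, rfl⟩ : ∃ j, k = j + 1 := ⟨k - 1, by omega⟩
  simp only [phi0_mk]
  obtain ⟨a, ha⟩ := AddChar.ne_one_iff.1 hψ
  have h0 : (0 : Fin (k + 1)) ≠ Fin.last k := fun h => by
    have := congrArg Fin.val h
    simp at this
    omega
  have h := Fintype.sum_equiv (Equiv.addRight (Pi.single (Fin.last k) (-a) : Fin (k + 1) → L))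
    (fun c => ψ a * (ψ (-c (Fin.last k)) * χ ((-1) ^ (k + 1) * c 0)))
    (fun c => ψ (-c (Fin.last k)) * χ ((-1) ^ (k + 1) * c 0)) fun c => by
      simp only [Equiv.coe_addRight, Pi.add_apply, Pi.single_eq_same, Pi.single_eq_of_ne h0,
        add_zero, neg_add, neg_neg, AddChar.map_add_eq_mul]
      ring
  rw [← Finset.mul_sum] at h
  have h2 : (ψ a - 1) * ∑ c : Fin (k + 1) → L, ψ (-c (Fin.last k)) * χ ((-1) ^ (k + 1) * c 0) = 0 := by
    rw [sub_mul, h, one_mul, sub_self]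
  exact (mul_eq_zero.1 h2).resolve_left (sub_ne_zero.2 ha)

theorem one_eq (f : L[X] → ℂ) : ∑ a : L, f (X - C a) =
    ∑ c : Fin 1 → L, f (X ^ 1 + ∑ i : Fin 1, C (c i) * X ^ (i : ℕ)) := by
  refine (Fintype.sum_equiv ((Equiv.funUnique (Fin 1) L).trans (Equiv.neg L)) _ _ fun c => ?_).symm
  simp

theorem gs (ψ : AddChar L ℂ) (χ : MulChar L ℂ) :
    ∑ a : L, phi0 ψ χ (X - C a) = gaussSum χ ψ := by
  unfold gaussSum
  refine Finset.sum_congr rfl fun a _ => ?_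
  unfold phi0
  rw [nextCoeff_X_sub_C, natDegree_X_sub_C, neg_neg, mul_comm]
  simp

end Sk

theorem sk {D : Dat p} (hP : Par D) (l : L) (hl : l ≠ 0) :
    ∃ (ψ : AddChar L ℂ) (χ : MulChar L ℂ), ψ ≠ 1 ∧ (χ = 1 ↔ l = 1) ∧
      (∀ k, 2 ≤ k → ∑ c : Fin k → L, phi D l (X ^ k + ∑ i, C (c i) * X ^ (i : ℕ)) = 0) ∧
      (∀ k, 2 ≤ k → ∑ c : Fin k → L, phi D.z l (X ^ k + ∑ i, C (c i) * X ^ (i : ℕ)) = 0) ∧
      ∑ a : L, phi D l (X - C a) = gaussSum χ ψ ∧ ∑ a : L, phi D.z l (X - C a) = -1 := by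
  obtain ⟨ψ, χ, τ, hψ, hχ, hτ, h1, h2⟩ := hP L l hl
  have key : ∀ k, ∑ c : Fin k → L, phi D l (X ^ k + ∑ i, C (c i) * X ^ (i : ℕ)) =
      ∑ c : Fin k → L, phi0 ψ χ (X ^ k + ∑ i : Fin k, C (c i) * X ^ (i : ℕ)) := fun k => by
    rw [← Sk.reidx τ hτ (phi0 ψ χ) k]
    exact Finset.sum_congr rfl fun c _ => h1 ⟨_, Sk.monic c⟩
  refine ⟨ψ, χ, hψ, hχ, fun k hk => ?_, fun k hk => ?_, ?_, ?_⟩
  · rw [key, Sk.van hψ χ hk]
  · rw [← Sk.van hψ 1 hk]
    exact Finset.sum_congr rfl fun c _ => h2 _ (Sk.monic c)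
  · rw [Sk.one_eq, key, ← Sk.one_eq, Sk.gs]
  · rw [← gaussSum_one_left hψ, ← Sk.gs]
    exact Finset.sum_congr rfl fun a _ => h2 _ (monic_X_sub_C a)

end CL.KGB
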