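import Cfsg.Agent.KGV.B.Link
import Cfsg.Agent.KGV.B.Sk
import Cfsg.Agent.BLK.KG.Am

set_option autoImplicit false

namespace CL.KGB
open Polynomial Cfsg CL.VCh TensorProduct

variable {p : ℕ} [Fact p.Prime]

namespace Bk70
variable {L : Type} [Field L] [Fintype L]

theorem psi_pow [Algebra (ZMod p) L] (ψ : AddChar L ℂ) (a : L) : ψ a ^ p = 1 := by
  haveI : CharP L p := charP_of_injective_algebraMap (algebraMap (ZMod p) L).injective p
  rw [← AddChar.map_nsmul_eq_pow, nsmul_eq_mul, CharP.cast_eq_zero, zero_mul,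
    AddChar.map_zero_eq_one]

theorem chi_pow (χ : MulChar L ℂ) (a : L) : χ a = 0 ∨ χ a ^ (Fintype.card L - 1) = 1 := by
  by_cases ha : a = 0
  · left; rw [ha, MulChar.map_zero]
  · right; rw [← map_pow, FiniteField.pow_card_sub_one_eq_one a ha, map_one]

theorem card_ne : Fintype.card L - 1 ≠ 0 := by
  have := Fintype.one_lt_card (α := L); omega

theorem chi_int (χ : MulChar L ℂ) (a : L) : IsIntegral ℤ (χ a) := by
  rcases chi_pow χ a with h | h
  · rw [h]; exact isIntegral_zero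
  · exact IsIntegral.of_pow (Nat.pos_of_ne_zero card_ne) (h ▸ isIntegral_one)

theorem psi_int [Algebra (ZMod p) L] (ψ : AddChar L ℂ) (a : L) : IsIntegral ℤ (ψ a) :=
  IsIntegral.of_pow (Fact.out : p.Prime).pos (psi_pow (p := p) ψ a ▸ isIntegral_one)

theorem gauss_int [Algebra (ZMod p) L] (χ : MulChar L ℂ) (ψ : AddChar L ℂ) :
    IsIntegral ℤ (gaussSum χ ψ) :=
  IsIntegral.sum _ fun a _ => (chi_int χ a).mul (psi_int (p := p) ψ a)

theorem gauss_fix [Algebra (ZMod p) L] (χ : MulChar L ℂ) (ψ : AddChar L ℂ) :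
    gaussSum χ ψ ∈ CL.VCh.Fix (p * (Fintype.card L - 1)) := by
  refine sum_mem fun a _ => mul_mem ?_ (root_mem_fix ?_)
  · rcases chi_pow χ a with h | h
    · rw [h]; exact zero_mem _
    · exact root_mem_fix (by rw [mul_comm, pow_mul, h, one_pow])
  · rw [pow_mul, psi_pow (p := p), one_pow]

theorem gauss_norm (σ : ℂ →+* ℂ) {χ : MulChar L ℂ} (hχ : χ ≠ 1) {ψ : AddChar L ℂ} (hψ : ψ ≠ 1) :
    ‖σ (gaussSum χ ψ)‖ ^ 2 = Fintype.card L := by
  have h1 : σ (gaussSum χ ψ) = gaussSum (χ.ringHomComp σ) ((σ : ℂ →* ℂ).compAddChar ψ) := by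
    simp [gaussSum, map_sum]
  have h2 := gaussSum_mul_gaussSum_eq_card ((MulChar.ringHomComp_ne_one_iff σ.injective).2 hχ)
    (ψ := (σ : ℂ →* ℂ).compAddChar ψ) (AddChar.IsPrimitive.of_ne_one fun h => hψ <| by
      ext a
      have := DFunLike.congr_fun h a
      simp only [MonoidHom.coe_compAddChar, Function.comp_apply, AddChar.one_apply] at this ⊢
      exact σ.injective (this.trans (map_one σ).symm))
  rw [← star_gaussSum_eq, ← h1, Complex.star_def, Complex.mul_conj, Complex.normSq_eq_norm_sq] at h2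
  exact_mod_cast h2

theorem gauss_red [Algebra (ZMod p) L] {M : Ideal AlgInt} (hM : IsPModular p M) {χ : MulChar L ℂ}
    (hχ : χ ≠ 1) (ψ : AddChar L ℂ) : CL.Blk.red M (gaussSum χ ψ) = 0 := by
  have hc : ∀ a, χ a ∈ CL.Blk.V M := fun a => CL.Blk.mem_V_of_isIntegral (chi_int χ a)
  have hp : ∀ a, ψ a ∈ CL.Blk.V M := fun a => CL.Blk.mem_V_of_isIntegral (psi_int (p := p) ψ a)
  rw [gaussSum, CL.Blk.red_sum _ fun a _ => mul_mem (hc a) (hp a)]
  have : ∀ a, CL.Blk.red M (χ a * ψ a) = CL.Blk.red M (χ a) := fun a => by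
    rw [CL.Blk.red_mul (hc a) (hp a), CL.Blk.red_eq_one_of_pow_p_pow hM (k := 1) (ζ := ψ a)
      (by rw [pow_one]; exact psi_pow (p := p) ψ a), mul_one]
  simp only [this]
  rw [← CL.Blk.red_sum _ fun a _ => hc a, MulChar.sum_eq_zero_of_ne_one hχ, CL.Blk.red_zero]

end Bk70

theorem Pt_block {M : Ideal AlgInt} (hM : IsPModular p M) {D : Dat p} (hP : Par D) {L : Type}
    [Field L] [Fintype L] [Algebra (ZMod p) L] {V : Type*} [AddCommGroup V] [Module (ZMod p) V]
    [Module L V] [IsScalarTower (ZMod p) L V] [Finite V] (l : L) (hl0 : l ≠ 0)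
    (hl : Algebra.adjoin (ZMod p) {l} = ⊤) :
    Pt M D ((l • 1 : Module.End L V).restrictScalars (ZMod p)) := by
  classical
  obtain ⟨ψ, χ, hψ, hχ, h1, h2, h3, h4⟩ := sk hP l hl0
  haveI : Finite (Module.End L V) := Finite.of_injective _ DFunLike.coe_injective
  letI : Fintype (Module.End L V) := Fintype.ofFinite _
  haveI : Module.Finite L V := Module.Finite.of_finite
  haveI : CharP L p := charP_of_injective_algebraMap (algebraMap (ZMod p) L).injective p
  obtain ⟨d, -, hd⟩ := FiniteField.card L p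
  have e1 := (F_block D (V := V) l hl).trans
    (CL.KG.Am.sum (phi D l) (phi_one D l) (phi_mul D l) h1 V)
  have e2 := (F_block D.z (V := V) l hl).trans
    (CL.KG.Am.sum (phi D.z l) (phi_one D.z l) (phi_mul D.z l) h2 V)
  rw [h3] at e1
  rw [h4] at e2
  have hV : Nat.card V = Fintype.card L ^ Module.finrank L V := by
    rw [Module.natCard_eq_pow_finrank (K := L), Nat.card_eq_fintype_card]
  have hfix : l ≠ 1 → ∀ v : V, l • v = v → v = 0 := fun h v hv => by
    have : (l - 1) • v = 0 := by rw [sub_smul, hv, one_smul, sub_self]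
    exact (smul_eq_zero.1 this).resolve_left (sub_ne_zero.2 h)
  have hone : l = 1 → -gaussSum χ ψ = 1 := fun h => by
    rw [hχ.2 h, gaussSum_one_left hψ, neg_neg]
  generalize hm : Module.finrank L V = m at e1 e2 hV
  refine ⟨(-gaussSum χ ψ) ^ m, d * (m * (m - 1) / 2), p * (Fintype.card L - 1),
    mul_ne_zero (Fact.out : p.Prime).ne_zero Bk70.card_ne, ?_, ?_, ?_, ?_, ?_, ?_, ?_⟩
  · rw [e2, hd, Nat.cast_pow, ← pow_mul]
    rcases neg_one_pow_eq_or ℂ m with h | h <;> rw [h] <;> simp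
  · rw [e1, e2, mul_assoc, ← mul_pow]; simp
  · exact (Bk70.gauss_int (p := p) χ ψ).neg.pow m
  · exact pow_mem (neg_mem (Bk70.gauss_fix (p := p) χ ψ)) m
  · intro σ
    by_cases h : l = 1
    · rw [hone h, one_pow, map_one, norm_one, one_pow, one_mul]
      exact_mod_cast Finite.card_subtype_le _
    · have hc : Nat.card {v // ((l • 1 : Module.End L V).restrictScalars (ZMod p)) v = v} = 1 := by
        rw [Nat.card_eq_one_iff_unique]
        exact ⟨⟨fun a b => Subtype.ext ((hfix h _ a.2).trans (hfix h _ b.2).symm)⟩,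
          ⟨⟨0, map_zero _⟩⟩⟩
      rw [hc, map_pow, norm_pow, map_neg, norm_neg, ← pow_mul, mul_comm m, pow_mul,
        Bk70.gauss_norm σ (mt hχ.1 h) hψ, hV]
      simp
  · intro hg
    by_cases h : l = 1
    · rw [hone h, one_pow]
    · haveI : Subsingleton V := ⟨fun a b =>
        (hfix h a (LinearMap.congr_fun hg a)).trans (hfix h b (LinearMap.congr_fun hg b)).symm⟩
      rw [← hm, Module.finrank_zero_of_subsingleton, pow_zero]
  · intro hg
    have h : l ≠ 1 := fun h => hg (by rw [h, one_smul]; rfl)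
    have hm0 : m ≠ 0 := fun h0 => hg (by
      haveI : Subsingleton V := Module.finrank_zero_iff.1 (hm.trans h0)
      exact LinearMap.ext fun v => Subsingleton.elim _ _)
    rw [CL.Blk.red_pow (CL.Blk.mem_V_of_isIntegral (Bk70.gauss_int (p := p) χ ψ).neg),
      CL.Blk.red_neg, Bk70.gauss_red hM (mt hχ.1 h), neg_zero, zero_pow hm0]

end CL.KGB
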