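import Cfsg.Agent.KGV.B.PtProd
import Cfsg.Agent.KGV.B.Blk

set_option autoImplicit false

namespace CL.KGB
open Polynomial Cfsg CL.VCh TensorProduct

variable {p : ℕ} [Fact p.Prime]

namespace All

theorem zero_of {k U W : Type*} [Field k] [AddCommGroup U] [Module k U] [AddCommGroup W]
    [Module k W] {g : Module.End k U} {g' : Module.End k W} {a b : k[X]} (hab : IsCoprime a b)
    (ha : aeval g a = 0) (hb : aeval g' b = 0) (t : U →ₗ[k] W) (ht : t ∘ₗ g = g' ∘ₗ t) : t = 0 := by
  have h1 : ∀ (n : ℕ) (u : U), t ((g ^ n) u) = (g' ^ n) (t u) := fun n => by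
    induction n with
    | zero => simp
    | succ n ih =>
      intro u
      rw [pow_succ, pow_succ, Module.End.mul_apply, Module.End.mul_apply, ih]
      exact congrArg _ (LinearMap.congr_fun ht u)
  have h2 : ∀ (r : k[X]) (u : U), t (aeval g r u) = aeval g' r (t u) := fun r u => by
    induction r using Polynomial.induction_on' with
    | add r s hr hs => simp [hr, hs]
    | monomial n c => simp [aeval_monomial, h1, Module.algebraMap_end_apply]
  obtain ⟨x, y, hxy⟩ := hab
  ext u
  have h3 : aeval g' (x * a + y * b) (t u) = t u := by rw [hxy]; simp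
  rw [map_add, LinearMap.add_apply, ← h2, map_mul, map_mul, ha, hb] at h3
  simpa using h3.symm

theorem aeval_restrict {k V : Type*} [Field k] [AddCommGroup V] [Module k V] (g : Module.End k V)
    {U : Submodule k V} (hU : ∀ x ∈ U, g x ∈ U) (r : k[X]) (u : U) :
    ((aeval (g.restrict hU : Module.End k U) r u : U) : V) = aeval g r u := by
  have h1 : ∀ (n : ℕ) (u : U), ((((g.restrict hU : Module.End k U) ^ n) u : U) : V) = (g ^ n) u :=
    fun n => by
      induction n with
      | zero => simp
      | succ n ih =>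
        intro u
        rw [pow_succ, pow_succ, Module.End.mul_apply, Module.End.mul_apply, ih]
        rfl
  induction r using Polynomial.induction_on' with
  | add r s hr hs => simp [hr, hs]
  | monomial n c => simp [aeval_monomial, h1, Module.algebraMap_end_apply]

theorem irr {M : Ideal AlgInt} (hM : IsPModular p M) {D : Dat p} (hP : Par D) {V : Type*}
    [AddCommGroup V] [Module (ZMod p) V] [Finite V] (g : Module.End (ZMod p) V)
    {h : (ZMod p)[X]} (hh : Irreducible h) (h0 : h.coeff 0 ≠ 0) (hg : aeval g h = 0) :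
    Pt M D g := by
  haveI : Fact (Irreducible h) := ⟨hh⟩
  haveI : Module.Finite (ZMod p) (AdjoinRoot h) := (AdjoinRoot.powerBasis hh.ne_zero).finite
  haveI : Finite (AdjoinRoot h) := Module.finite_of_finite (ZMod p)
  letI : Fintype (AdjoinRoot h) := Fintype.ofFinite _
  let φ : AdjoinRoot h →ₐ[ZMod p] Module.End (ZMod p) V :=
    Ideal.Quotient.liftₐ (Ideal.span {h}) (aeval g) (fun a ha => by
      obtain ⟨b, rfl⟩ := Ideal.mem_span_singleton'.1 ha
      rw [map_mul, hg, mul_zero])
  have hφ : φ (AdjoinRoot.root h) = g := by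
    change aeval g (X : (ZMod p)[X]) = g
    exact aeval_X g
  letI : Module (AdjoinRoot h) V := Module.compHom V φ.toRingHom
  haveI : IsScalarTower (ZMod p) (AdjoinRoot h) V := ⟨fun a l u => by
    change φ (a • l) u = a • φ l u
    rw [map_smul]; rfl⟩
  have hl0 : AdjoinRoot.root h ≠ 0 := fun e => by
    have := AdjoinRoot.eval₂_root h
    rw [e, eval₂_at_zero] at this
    exact h0 ((AdjoinRoot.of h).injective (by rw [this, map_zero]))
  have := Pt_block (V := V) hM hP (AdjoinRoot.root h) hl0 AdjoinRoot.adjoinRoot_eq_top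
  convert this using 1
  ext v
  change g v = φ (AdjoinRoot.root h) v
  rw [hφ]

universe u

theorem main {M : Ideal AlgInt} (hM : IsPModular p M) {D : Dat p} (hP : Par D) (n : ℕ) :
    ∀ (q : (ZMod p)[X]), q.natDegree ≤ n → Squarefree q → q.coeff 0 ≠ 0 →
      ∀ (V : Type u) [AddCommGroup V] [Module (ZMod p) V] [Finite V] (g : Module.End (ZMod p) V),
        aeval g q = 0 → Pt M D g := by
  have hu : ∀ q : (ZMod p)[X], IsUnit q →
      ∀ (V : Type u) [AddCommGroup V] [Module (ZMod p) V] [Finite V] (g : Module.End (ZMod p) V),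
        aeval g q = 0 → Pt M D g := by
    intro q hq V _ _ _ g hg
    have h1 := hq.map (aeval g)
    rw [hg] at h1
    have h2 : (0 : Module.End (ZMod p) V) = 1 := isUnit_zero_iff.1 h1
    haveI := subsingleton_of_zero_eq_one h2
    exact irr hM hP g (irreducible_X_sub_C 1) (by simp) (Subsingleton.elim _ _)
  induction n with
  | zero =>
    intro q hq _ h0
    refine hu q ?_
    rw [eq_C_of_natDegree_le_zero hq]
    exact isUnit_C.2 (Ne.isUnit h0)
  | succ n ih =>
    intro q hq hs h0 V _ _ _ g hg
    by_cases hqu : IsUnit q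
    · exact hu q hqu V g hg
    obtain ⟨h, hh, r, rfl⟩ := WfDvdMonoid.exists_irreducible_factor hqu hs.ne_zero
    have hr0 : r ≠ 0 := right_ne_zero_of_mul hs.ne_zero
    have hc : IsCoprime h r := (IsRelPrime.of_squarefree_mul hs).isCoprime
    rw [mul_coeff_zero] at h0
    have hd : r.natDegree ≤ n := by
      rw [natDegree_mul hh.ne_zero hr0] at hq
      have := hh.natDegree_pos
      omega
    have hinv : ∀ s : (ZMod p)[X], ∀ x ∈ LinearMap.ker (aeval g s), g x ∈ LinearMap.ker (aeval g s) :=
      fun s x hx => by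
        have e : aeval g s * g = g * aeval g s := by
          have := congrArg (aeval g) (mul_comm s X)
          simpa only [map_mul, aeval_X] using this
        rw [LinearMap.mem_ker] at hx ⊢
        rw [← Module.End.mul_apply, e, Module.End.mul_apply, hx, map_zero]
    have hz : ∀ s : (ZMod p)[X],
        aeval (g.restrict (hinv s) : Module.End (ZMod p) (LinearMap.ker (aeval g s))) s = 0 :=
      fun s => LinearMap.ext fun u => Subtype.ext ((aeval_restrict g (hinv s) s u).trans u.2)
    have hco : IsCompl (LinearMap.ker (aeval g h)) (LinearMap.ker (aeval g r)) := by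
      refine ⟨disjoint_ker_aeval_of_isCoprime g hc, codisjoint_iff.2 ?_⟩
      rw [sup_ker_aeval_eq_ker_aeval_mul_of_coprime g hc, hg, LinearMap.ker_zero]
    have h1 := irr hM hP _ hh (left_ne_zero_of_mul h0) (hz h)
    have h2 := ih r hd hs.of_mul_right (right_ne_zero_of_mul h0) _ _ (hz r)
    have h3 := Pt_prod hM h1 h2 (zero_of hc (hz h) (hz r)) (zero_of hc.symm (hz r) (hz h))
    refine Pt_conj (Submodule.prodEquivOfIsCompl _ _ hco).symm ?_
    convert h3 using 1
    refine LinearMap.ext fun x => ?_
    rw [LinearEquiv.conj_apply_apply, LinearEquiv.symm_symm, LinearEquiv.symm_apply_eq]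
    obtain ⟨a, b⟩ := x
    simp [Submodule.coe_prodEquivOfIsCompl', LinearMap.restrict_apply]

end All

theorem Pt_all {M : Ideal AlgInt} (hM : IsPModular p M) {D : Dat p} (hP : Par D) {V : Type*}
    [AddCommGroup V] [Module (ZMod p) V] [Finite V] (g : Module.End (ZMod p) V) {N : ℕ}
    (hN : ¬ p ∣ N) (hg : g ^ N = 1) : Pt M D g := by
  have hN0 : N ≠ 0 := fun e => hN (e ▸ dvd_zero p)
  have hs : (X ^ N - C 1 : (ZMod p)[X]).Separable :=
    separable_X_pow_sub_C 1 (fun e => hN ((ZMod.natCast_eq_zero_iff N p).1 e)) one_ne_zero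
  refine All.main hM hP _ _ le_rfl hs.squarefree ?_ V g (by simp [hg])
  simp [coeff_X_pow, hN0.symm]

end CL.KGB
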