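import Mathlib
import Cfsg.Agent.BLK.RVecA

set_option autoImplicit false

namespace CL.KGB
open Polynomial Cfsg CL.VCh

abbrev Kb (p : ℕ) [Fact p.Prime] := AlgebraicClosure (ZMod p)

structure Dat (p : ℕ) [Fact p.Prime] where
  Ψ : AddChar (Kb p) ℂ
  ι : Kb p →* ℂ
  c : Kb p → ℕ

variable {p : ℕ} [Fact p.Prime]

/-- the same data with trivial pairing -/
def Dat.z (D : Dat p) : Dat p := ⟨D.Ψ, D.ι, fun _ => 0⟩

open Classical in
noncomputable def wt0 (D : Dat p) (μ : Kb p) : ℂ := if μ = 0 then 0 else D.Ψ μ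

noncomputable def cc (D : Dat p) (l μ : Kb p) : ℂ := wt0 D μ * D.ι l ^ D.c μ

section
variable {W : Type*} [AddCommGroup W] [Module (Kb p) W] [Module.Finite (Kb p) W]

noncomputable def wt (D : Dat p) (y : Module.End (Kb p) W) : ℂ :=
  (y.charpoly.roots.map (wt0 D)).prod

open Classical in
noncomputable def th (D : Dat p) (y g : Module.End (Kb p) W) : ℂ :=
  if h : Commute y g then ∏ μ ∈ y.charpoly.roots.toFinset,
    D.ι (LinearMap.det (g.restrict (Module.End.mapsTo_maxGenEigenspace_of_comm h μ))) ^ D.c μ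
  else 0

noncomputable def wg (D : Dat p) (y g : Module.End (Kb p) W) : ℂ := wt D y * th D y g
end

noncomputable def F (D : Dat p) {V : Type*} [AddCommGroup V] [Module (ZMod p) V] [Finite V]
    (g : Module.End (ZMod p) V) : ℂ :=
  ∑ᶠ y : Module.End (ZMod p) V, wg D (y.baseChange (Kb p)) (g.baseChange (Kb p))

noncomputable def phi (D : Dat p) {L : Type} [Field L] [Fintype L] [Algebra (ZMod p) L] (l : L)
    (P : L[X]) : ℂ :=
  ∏ σ : L →ₐ[ZMod p] Kb p, ((P.map (σ : L →+* Kb p)).roots.map (cc D (σ l))).prod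

/-- the untwisted polynomial weight -/
noncomputable def phi0 {L : Type} [Field L] (ψ : AddChar L ℂ) (χ : MulChar L ℂ) (P : L[X]) : ℂ :=
  ψ (-P.nextCoeff) * χ ((-1) ^ P.natDegree * P.coeff 0)

/-- good data: `phi` is `phi0` after a degree preserving bijection of the monic polynomials -/
def Par (D : Dat p) : Prop :=
  ∀ (L : Type) [Field L] [Fintype L] [Algebra (ZMod p) L] (l : L), l ≠ 0 →
    ∃ (ψ : AddChar L ℂ) (χ : MulChar L ℂ) (τ : Equiv.Perm {P : L[X] // P.Monic}),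
      ψ ≠ 1 ∧ (χ = 1 ↔ l = 1) ∧ (∀ P, (τ P).1.natDegree = P.1.natDegree) ∧
      (∀ P : {P : L[X] // P.Monic}, phi D l P.1 = phi0 ψ χ (τ P).1) ∧
      ∀ P : L[X], P.Monic → phi D.z l P = phi0 ψ 1 P

/-- the pointwise claim -/
def Pt (M : Ideal AlgInt) (D : Dat p) {V : Type*} [AddCommGroup V] [Module (ZMod p) V] [Finite V]
    (g : Module.End (ZMod p) V) : Prop :=
  ∃ (f : ℂ) (j n : ℕ), n ≠ 0 ∧ (F D.z g = p ^ j ∨ F D.z g = -p ^ j) ∧ F D g = F D.z g * f ∧
    IsIntegral ℤ f ∧ f ∈ Fix n ∧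
    (∀ σ : ℂ →+* ℂ, ‖σ f‖ ^ 2 * Nat.card {v // g v = v} ≤ Nat.card V) ∧
    (g = 1 → f = 1) ∧ (g ≠ 1 → CL.Blk.red M f = 0)

end CL.KGB
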