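import Cfsg.Agent.KGV.B.Th
import Cfsg.Agent.BLK.KG.Mono

set_option autoImplicit false

namespace CL.KGB
open Polynomial Cfsg CL.VCh TensorProduct

variable {p : ℕ} [Fact p.Prime]

theorem Mem.bc_inj {V : Type*} [AddCommGroup V] [Module (ZMod p) V]
    {a b : Module.End (ZMod p) V} (h : a.baseChange (Kb p) = b.baseChange (Kb p)) : a = b := by
  ext v
  have h1 := LinearMap.congr_fun h (1 ⊗ₜ v)
  simp only [LinearMap.baseChange_tmul] at h1
  exact Module.FaithfullyFlat.tensorProduct_mk_injective (A := ZMod p) (B := Kb p) V h1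

theorem F_mem (D : Dat p) {H V : Type*} [Group H] [Finite H] [AddCommGroup V] [Module (ZMod p) V]
    [Finite V] (ρ : Representation (ZMod p) H V) : (fun h => F D (ρ h)) ∈ VC H := by
  classical
  have : Finite (Module.End (ZMod p) V) := Finite.of_injective _ DFunLike.coe_injective
  have := Fintype.ofFinite (Module.End (ZMod p) V)
  let B : Module.End (ZMod p) V →* Module.End (Kb p) (Kb p ⊗[ZMod p] V) :=
    { toFun := fun y => y.baseChange (Kb p)
      map_one' := LinearMap.baseChange_one _ _
      map_mul' := fun a b => LinearMap.baseChange_mul _ _ }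
  have hB : ∀ y, B y = y.baseChange (Kb p) := fun _ => rfl
  have hi : ∀ g : H, ρ g⁻¹ * ρ g = 1 := fun g => by rw [← map_mul, inv_mul_cancel, map_one]
  have hi' : ∀ g : H, ρ g * ρ g⁻¹ = 1 := fun g => by rw [← map_mul, mul_inv_cancel, map_one]
  let _ : MulAction H (Module.End (ZMod p) V) :=
    { smul := fun g y => ρ g * y * ρ g⁻¹
      one_smul := fun y => by
        show ρ 1 * y * ρ 1⁻¹ = y
        simp
      mul_smul := fun g h y => by
        show ρ (g * h) * y * ρ (g * h)⁻¹ = ρ g * (ρ h * y * ρ h⁻¹) * ρ g⁻¹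
        simp only [mul_inv_rev, map_mul, mul_assoc] }
  have hs : ∀ (g : H) (y : Module.End (ZMod p) V), g • y = ρ g * y * ρ g⁻¹ := fun _ _ => rfl
  have hc : ∀ (g : H) (y : Module.End (ZMod p) V), g • y = y ↔ Commute (B y) (B (ρ g)) := by
    intro g y
    rw [hs]
    constructor
    · intro h
      refine Commute.map ?_ B
      show y * ρ g = ρ g * y
      conv_lhs => rw [← h]
      rw [mul_assoc, hi, mul_one]
    · intro h
      have h2 : y * ρ g = ρ g * y := Mem.bc_inj (by rw [← hB, ← hB, map_mul, map_mul]; exact h)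
      rw [← h2, mul_assoc, hi', mul_one]
  let e : H → (Kb p ⊗[ZMod p] V) ≃ₗ[Kb p] (Kb p ⊗[ZMod p] V) := fun g =>
    LinearEquiv.ofLinear (B (ρ g)) (B (ρ g⁻¹))
      (by rw [← Module.End.mul_eq_comp, ← map_mul, hi', map_one]; rfl)
      (by rw [← Module.End.mul_eq_comp, ← map_mul, hi, map_one]; rfl)
  have he : ∀ (g : H) (y : Module.End (ZMod p) V), B (ρ g * y * ρ g⁻¹) = (e g).conj (B y) := by
    intro g y
    rw [map_mul, map_mul]
    rfl
  have key := CL.KG.mono (H := H) (Y := Module.End (ZMod p) V) (fun y => wt D (B y))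
    (fun y => wt_int D _) (fun g y => by rw [hs, he, wt_conj])
    (fun y g => th D (B y) (B (ρ g)))
    (fun y a b ha hb => by rw [map_mul, map_mul, th_mul D ((hc a y).1 ha) ((hc b y).1 hb)])
    (fun y => by rw [map_one, map_one, th_one])
    (fun y g a _ => by rw [hs, map_mul ρ, map_mul ρ, he, he, th_conj])
  convert key using 2 with h
  rw [F, finsum_eq_sum_of_fintype]
  refine Finset.sum_congr rfl fun y _ => ?_
  split_ifs with hy
  · rfl
  · rw [wg, ← hB, ← hB, th_of_not D (fun h' => hy ((hc h y).2 h')), mul_zero]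

end CL.KGB
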