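import Cfsg.Agent.KGV.B.All
import Cfsg.Agent.KGV.B.ParEx
import Cfsg.Agent.KGV.B.Mem
import Cfsg.Agent.KGV.Glue

set_option autoImplicit false

namespace CL.KGB
open Cfsg CL.VCh CL.RVec

universe u

theorem ex (p : ℕ) [Fact p.Prime] : CL.KGV.Ex.{u} p := by
  intro H U _ _ _ _ _ M hM hH ρ
  classical
  have hp : p.Prime := Fact.out
  have := Fintype.ofFinite H
  obtain ⟨D, hD⟩ := par_ex (p := p)
  have hpt : ∀ h, Pt M D (ρ h) := fun h =>
    Pt_all hM hD (ρ h) hH (by rw [← map_pow, pow_card_eq_one', map_one])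
  choose f j n hn hS hF hi hfix hle h1 h0 using hpt
  refine ⟨∏ h, n h, Finset.prod_ne_zero_iff.2 fun h _ => hn h, f, ?_,
    fun h => CL.KGV.fix_mono (Finset.dvd_prod_of_mem _ (Finset.mem_univ h)) (hfix h),
    fun σ h => hle h σ, h1 1 (map_one ρ), fun h hh => h0 h fun h2 => hh ?_⟩
  · refine mem_of_mul_eq (F_mem D.z ρ) (F_mem D ρ) hi (fun h => (hF h).symm)
      (q := p ^ ∑ h, j h) (((Nat.Prime.coprime_iff_not_dvd hp).2 hH).pow_left _) fun h => ?_
    obtain ⟨k, hk⟩ := Nat.exists_eq_add_of_le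
      (Finset.single_le_sum (f := j) (fun _ _ => Nat.zero_le _) (Finset.mem_univ h))
    have hI : IsIntegral ℤ ((p : ℂ) ^ k) := (isIntegral_natCast p).pow k
    rcases hS h with h3 | h3
    · exact ⟨p ^ k, hI, by rw [h3, hk]; push_cast; ring⟩
    · exact ⟨-p ^ k, hI.neg, by rw [h3, hk]; push_cast; ring⟩
  · exact eq_top_iff.2 fun u _ => mem_Fx.2 (by rw [h2]; rfl)

end CL.KGB
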