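import Cfsg.Agent.KGV.B.WgProd

set_option autoImplicit false
set_option linter.unusedSectionVars false

namespace CL.KGB
open Polynomial Cfsg CL.VCh TensorProduct

variable {p : ℕ} [Fact p.Prime]
variable {V V' : Type*} [AddCommGroup V] [Module (ZMod p) V] [Finite V]
  [AddCommGroup V'] [Module (ZMod p) V'] [Finite V']

theorem FProd.bc_conj (e : V ≃ₗ[ZMod p] V') (y : Module.End (ZMod p) V) :
    (e.conj y).baseChange (Kb p) =
      (LinearEquiv.baseChange (ZMod p) (Kb p) V V' e).conj (y.baseChange (Kb p)) := by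
  rw [LinearEquiv.conj_apply (LinearEquiv.baseChange (ZMod p) (Kb p) V V' e),
    LinearEquiv.eq_comp_toLinearMap_symm]
  refine AlgebraTensorModule.ext fun a v => ?_
  simp [LinearEquiv.conj_apply]

theorem FProd.bc_prod (y : Module.End (ZMod p) V) (y' : Module.End (ZMod p) V') :
    (prodRight (ZMod p) (Kb p) (Kb p) V V').conj (LinearMap.baseChange (Kb p) (y.prodMap y')) =
      (y.baseChange (Kb p)).prodMap (y'.baseChange (Kb p)) := by
  rw [LinearEquiv.conj_apply, LinearEquiv.comp_toLinearMap_symm_eq]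
  refine AlgebraTensorModule.ext fun a v => ?_
  simp

theorem FProd.comm {y g : Module.End (ZMod p) V}
    (h : Commute (y.baseChange (Kb p)) (g.baseChange (Kb p))) : y * g = g * y := by
  ext v
  have h1 := LinearMap.congr_fun h.eq ((1 : Kb p) ⊗ₜ[ZMod p] v)
  simp only [Module.End.mul_apply, LinearMap.baseChange_tmul] at h1
  rw [← sub_eq_zero, ← tmul_sub, Module.FaithfullyFlat.one_tmul_eq_zero_iff, sub_eq_zero] at h1
  exact h1

theorem F_conj (D : Dat p) (e : V ≃ₗ[ZMod p] V') (g : Module.End (ZMod p) V) :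
    F D (e.conj g) = F D g := by
  unfold F
  rw [← finsum_comp_equiv e.conj.toEquiv]
  refine finsum_congr fun y => ?_
  show wg D ((e.conj y).baseChange (Kb p)) _ = _
  rw [FProd.bc_conj, FProd.bc_conj, wg_conj]

theorem F_prod (D : Dat p) (g : Module.End (ZMod p) V) (g' : Module.End (ZMod p) V')
    (h1 : ∀ t : V →ₗ[ZMod p] V', t ∘ₗ g = g' ∘ₗ t → t = 0)
    (h2 : ∀ t : V' →ₗ[ZMod p] V, t ∘ₗ g' = g ∘ₗ t → t = 0) :
    F D (g.prodMap g') = F D g * F D g' := by
  have := Finite.of_injective _ (DFunLike.coe_injective (F := Module.End (ZMod p) V))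
  have := Finite.of_injective _ (DFunLike.coe_injective (F := Module.End (ZMod p) V'))
  have := Finite.of_injective _ (DFunLike.coe_injective (F := Module.End (ZMod p) (V × V')))
  have := Fintype.ofFinite (Module.End (ZMod p) V)
  have := Fintype.ofFinite (Module.End (ZMod p) V')
  have := Fintype.ofFinite (Module.End (ZMod p) (V × V'))
  unfold F
  rw [finsum_eq_sum_of_fintype, finsum_eq_sum_of_fintype, finsum_eq_sum_of_fintype,
    Finset.sum_mul_sum, ← Fintype.sum_prod_type']
  symm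
  refine Fintype.sum_of_injective
    (fun z : Module.End (ZMod p) V × Module.End (ZMod p) V' => z.1.prodMap z.2) ?_ _ _ ?_ ?_
  · rintro ⟨a, b⟩ ⟨c, d⟩ h
    have h' : ∀ v w, a.prodMap b (v, w) = c.prodMap d (v, w) := fun v w => LinearMap.congr_fun h _
    exact Prod.ext (LinearMap.ext fun v => congrArg Prod.fst (h' v 0))
      (LinearMap.ext fun w => congrArg Prod.snd (h' 0 w))
  · intro y hy
    rw [wg, th_of_not, mul_zero]
    intro hc
    have hc' : ∀ z, y (g.prodMap g' z) = g.prodMap g' (y z) := LinearMap.congr_fun (FProd.comm hc)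
    have e1 := h1 (LinearMap.snd _ _ _ ∘ₗ y ∘ₗ LinearMap.inl _ _ _) (LinearMap.ext fun v => by
      simpa using congrArg Prod.snd (hc' (v, 0)))
    have e2 := h2 (LinearMap.fst _ _ _ ∘ₗ y ∘ₗ LinearMap.inr _ _ _) (LinearMap.ext fun v => by
      simpa using congrArg Prod.fst (hc' (0, v)))
    refine hy ⟨(LinearMap.fst _ _ _ ∘ₗ y ∘ₗ LinearMap.inl _ _ _,
      LinearMap.snd _ _ _ ∘ₗ y ∘ₗ LinearMap.inr _ _ _), LinearMap.ext fun z => ?_⟩
    obtain ⟨v, w⟩ := z
    have a1 : (y (v, 0)).2 = 0 := LinearMap.congr_fun e1 v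
    have a2 : (y (0, w)).1 = 0 := LinearMap.congr_fun e2 w
    have a3 : y (v, w) = y (v, 0) + y (0, w) := by rw [← map_add]; simp
    rw [a3]
    refine Prod.ext ?_ ?_
    · show (y (v, 0)).1 = (y (v, 0)).1 + (y (0, w)).1
      rw [a2, add_zero]
    · show (y (0, w)).2 = (y (v, 0)).2 + (y (0, w)).2
      rw [a1, zero_add]
  · rintro ⟨a, b⟩
    show _ = wg D (LinearMap.baseChange (Kb p) (a.prodMap b)) _
    rw [← wg_conj D (prodRight (ZMod p) (Kb p) (Kb p) V V'), FProd.bc_prod, FProd.bc_prod, wg_prod]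

end CL.KGB
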