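import Cfsg.Agent.KGV.B.Defs

set_option autoImplicit false

namespace CL.KGB
open Polynomial Cfsg CL.VCh TensorProduct

variable {p : ℕ} [Fact p.Prime]

namespace RhoAux
open Equiv Equiv.Perm

theorem ex {α : Type*} (σ : Equiv.Perm α) (hfin : ∀ x, ∃ n : ℕ, 0 < n ∧ (σ ^ n) x = x) :
    ∃ τ : α → α, (∀ x, τ (τ x) = x) ∧ (∀ x, σ (τ (σ x)) = τ x) ∧ ∀ x, ∃ n : ℕ, τ x = (σ ^ n) x := by
  classical
  let s : Setoid α := ⟨σ.SameCycle, ⟨SameCycle.refl σ, SameCycle.symm, SameCycle.trans⟩⟩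
  let r : α → α := fun x => (Quotient.mk s x).out
  have hr : ∀ x, σ.SameCycle (r x) x := fun x => Quotient.mk_out (s := s) x
  have hrr : ∀ x y, σ.SameCycle x y → r x = r y := fun x y h =>
    congrArg Quotient.out (Quotient.sound (s := s) h)
  choose k hk using hr
  have key : ∀ (b : α) (i j : ℤ), (σ ^ i) b = (σ ^ j) b → (σ ^ (-i)) b = (σ ^ (-j)) b := by
    intro b i j h
    have := congrArg (σ ^ (-i - j)) h
    rw [← mul_apply, ← mul_apply, ← zpow_add, ← zpow_add] at this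
    rw [show -i = -i - j + j by ring, show -j = -i - j + i by ring]
    exact this.symm
  have hτ : ∀ x (i : ℤ), x = (σ ^ i) (r x) → (σ ^ (-k x)) (r x) = (σ ^ (-i)) (r x) :=
    fun x i h => key _ _ _ ((hk x).trans h)
  have hs : ∀ x, σ.SameCycle ((σ ^ (-k x)) (r x)) x := fun x =>
    SameCycle.trans (SameCycle.symm ⟨-k x, rfl⟩) ⟨k x, hk x⟩
  refine ⟨fun x => (σ ^ (-k x)) (r x), fun x => ?_, fun x => ?_, fun x => ?_⟩
  · have e := hrr _ _ (hs x)
    show (σ ^ (-k _)) (r _) = x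
    rw [hτ _ (-k x) (by rw [e]), e, neg_neg, hk]
  · have e : r (σ x) = r x := hrr _ _ (SameCycle.symm ⟨1, by simp⟩)
    show σ ((σ ^ (-k _)) (r _)) = _
    rw [hτ (σ x) (1 + k x) (by rw [e, zpow_add, zpow_one, mul_apply, hk]), e, ← mul_apply,
      ← zpow_one_add]
    congr 2
    ring
  · obtain ⟨i, hi⟩ := (hs x).symm
    obtain ⟨n, hn, hx⟩ := hfin x
    have h0 : (0 : ℤ) ≤ i % n := Int.emod_nonneg _ (by exact_mod_cast hn.ne')
    refine ⟨(i % n).toNat, ?_⟩
    show (σ ^ (-k x)) (r x) = _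
    rw [← hi, ← zpow_natCast, Int.toNat_of_nonneg h0]
    conv_lhs => rw [← Int.emod_add_mul_ediv i n, zpow_add, mul_apply, zpow_mul, zpow_natCast,
      zpow_apply_eq_self_of_apply_eq_self hx]

theorem per (x : Kb p) : ∃ n : ℕ, 0 < n ∧ x ^ p ^ n = x := by
  let L := IntermediateField.adjoin (ZMod p) ({x} : Set (Kb p))
  have : FiniteDimensional (ZMod p) L :=
    IntermediateField.adjoin.finiteDimensional (Algebra.IsIntegral.isIntegral x)
  have : Finite L := Module.finite_of_finite (ZMod p)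
  have := Fintype.ofFinite L
  have : CharP L p := (Algebra.charP_iff (ZMod p) L p).1 inferInstance
  obtain ⟨n, -, hn⟩ := FiniteField.card L p
  refine ⟨n, n.2, ?_⟩
  have h := FiniteField.pow_card (⟨x, IntermediateField.mem_adjoin_simple_self _ x⟩ : L)
  rw [hn] at h
  exact congrArg Subtype.val h

theorem frob_pow (n : ℕ) (x : Kb p) :
    ((frobeniusEquiv (Kb p) p).toEquiv ^ n : Equiv.Perm (Kb p)) x = x ^ p ^ n := by
  induction n with
  | zero => simp
  | succ n ih =>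
    rw [pow_succ', mul_apply, ih, pow_succ, pow_mul]
    rfl

theorem map_eq (ρ : Equiv.Perm (Kb p)) (h2 : ∀ x, ∃ i : ℕ, ρ x = x ^ p ^ i) (M : Multiset (Kb p))
    (hM : M.map (· ^ p) = M) : M.map ρ = M := by
  classical
  have hc : ∀ x, M.count (x ^ p) = M.count x := fun x => by
    conv_lhs => rw [← hM]
    exact Multiset.count_map_eq_count' (· ^ p) M (frobenius (Kb p) p).injective x
  have hc' : ∀ (i : ℕ) x, M.count (x ^ p ^ i) = M.count x := fun i x => by
    induction i with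
    | zero => simp
    | succ i ih => rw [pow_succ, pow_mul, hc, ih]
  ext y
  obtain ⟨x, rfl⟩ := ρ.surjective y
  rw [Multiset.count_map_eq_count' ρ M ρ.injective x]
  obtain ⟨i, hi⟩ := h2 x
  rw [hi, hc']

theorem sum_pow (i : ℕ) (m : Multiset (Kb p)) : m.sum ^ p ^ i = (m.map (· ^ p ^ i)).sum :=
  map_multiset_sum (iterateFrobenius (Kb p) p i) m

theorem msum {α β : Type*} (g : α → β) (f : ℕ → Multiset α) (s : Finset ℕ) :
    (∑ i ∈ s, f i).map g = ∑ i ∈ s, (f i).map g :=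
  map_sum (Multiset.mapAddMonoidHom g) f s

theorem ssum {α : Type*} [AddCommMonoid α] (f : ℕ → Multiset α) (s : Finset ℕ) :
    (∑ i ∈ s, f i).sum = ∑ i ∈ s, (f i).sum :=
  map_sum Multiset.sumAddMonoidHom f s

end RhoAux

theorem rho : ∃ ρ : Equiv.Perm (Kb p), (∀ x, ρ (x ^ p) ^ p = ρ x) ∧ ∀ x, ∃ i : ℕ, ρ x = x ^ p ^ i := by
  obtain ⟨τ, h1, h2, h3⟩ := RhoAux.ex (frobeniusEquiv (Kb p) p).toEquiv fun x => by
    obtain ⟨n, hn, hx⟩ := RhoAux.per x
    exact ⟨n, hn, (RhoAux.frob_pow n x).trans hx⟩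
  refine ⟨⟨τ, τ, h1, h1⟩, h2, fun x => ?_⟩
  obtain ⟨n, hn⟩ := h3 x
  exact ⟨n, hn.trans (RhoAux.frob_pow n x)⟩

theorem rho_sum (ρ : Equiv.Perm (Kb p)) (h1 : ∀ x, ρ (x ^ p) ^ p = ρ x)
    (h2 : ∀ x, ∃ i : ℕ, ρ x = x ^ p ^ i) (e : ℕ) (m : Multiset (Kb p)) (hm : m.map (· ^ p ^ e) = m) :
    ∑ i ∈ Finset.range e, (m.map ρ).sum ^ p ^ i = ∑ i ∈ Finset.range e, m.sum ^ p ^ i := by
  have h3 : ∀ (i : ℕ) x, ρ (x ^ p ^ i) ^ p ^ i = ρ x := fun i x => by
    induction i with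
    | zero => simp
    | succ i ih => rw [pow_succ p i, pow_mul x, mul_comm (p ^ i) p, pow_mul, h1, ih]
  let f : ℕ → Multiset (Kb p) := fun i => m.map (· ^ p ^ i)
  have hs : ∑ i ∈ Finset.range e, f (i + 1) = ∑ i ∈ Finset.range e, f i := by
    have h4 := (Finset.sum_range_succ' f e).symm.trans (Finset.sum_range_succ f e)
    have h5 : f 0 = f e := by simp only [f, hm]; simp
    rw [h5] at h4
    exact add_right_cancel h4
  have hM : (∑ i ∈ Finset.range e, f i).map (· ^ p) = ∑ i ∈ Finset.range e, f i := by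
    rw [RhoAux.msum, ← hs]
    refine Finset.sum_congr rfl fun i _ => ?_
    simp only [f, Multiset.map_map, Function.comp_def, pow_succ, pow_mul]
  have h6 := congrArg Multiset.sum (RhoAux.map_eq ρ h2 _ hM)
  conv_lhs at h6 => rw [← hs, RhoAux.msum, RhoAux.ssum, ← Finset.sum_range_reflect]
  rw [RhoAux.ssum] at h6
  refine Eq.trans (Finset.sum_congr rfl fun i hi => ?_) (h6.trans
    (Finset.sum_congr rfl fun i _ => (RhoAux.sum_pow i m).symm))
  have hi' := Finset.mem_range.1 hi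
  rw [RhoAux.sum_pow]
  conv_lhs => rw [← hm]
  simp only [f, Multiset.map_map, Function.comp_def]
  congr 1
  refine Multiset.map_congr rfl fun x _ => ?_
  rw [← h3 i (x ^ p ^ (e - 1 - i + 1)), ← pow_mul x, ← pow_add, show e - 1 - i + 1 + i = e by omega]

end CL.KGB
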