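import Cfsg.Agent.KGV.B.Defs

set_option autoImplicit false

namespace CL.KGB
open Polynomial Cfsg CL.VCh TensorProduct

variable {p : ℕ} [Fact p.Prime]
variable {L : Type} [Field L] [Fintype L] [Algebra (ZMod p) L]

namespace Taux

theorem cd : Fintype.card L = p ^ Module.finrank (ZMod p) L := by
  rw [Module.card_eq_pow_finrank (K := ZMod p), ZMod.card]

theorem rng (j : L →ₐ[ZMod p] Kb p) {e : ℕ} (hc : Fintype.card L = p ^ e) (x : Kb p) :
    x ^ p ^ e = x ↔ x ∈ Set.range j := by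
  classical
  constructor
  · intro hx
    have h1 : 1 < Fintype.card L := Fintype.one_lt_card
    have h := roots_map_of_injective_of_card_eq_natDegree (p := (X ^ Fintype.card L - X : L[X]))
      (f := (j : L →+* Kb p)) (j : L →+* Kb p).injective (by
        rw [FiniteField.roots_X_pow_card_sub_X, FiniteField.X_pow_card_sub_X_natDegree_eq _ h1]
        rfl)
    have h2 : x ∈ ((X ^ Fintype.card L - X : L[X]).map (j : L →+* Kb p)).roots := by
      rw [mem_roots (map_ne_zero (FiniteField.X_pow_card_sub_X_ne_zero _ h1))]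
      simp [hc, hx]
    rw [← h] at h2
    obtain ⟨a, -, ha⟩ := Multiset.mem_map.1 h2
    exact ⟨a, ha⟩
  · rintro ⟨a, rfl⟩
    rw [← map_pow, ← hc, FiniteField.pow_card]

theorem uq (j : L →ₐ[ZMod p] Kb p) {P Q : L[X]} (hP : P.Monic) (hQ : Q.Monic)
    (h : (P.map (j : L →+* Kb p)).roots = (Q.map (j : L →+* Kb p)).roots) : P = Q := by
  refine map_injective (j : L →+* Kb p) (j : L →+* Kb p).injective ?_
  rw [← prod_multiset_X_sub_C_of_monic_of_roots_card_eq (hP.map _)
      (IsAlgClosed.card_roots_eq_natDegree),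
    ← prod_multiset_X_sub_C_of_monic_of_roots_card_eq (hQ.map _)
      (IsAlgClosed.card_roots_eq_natDegree), h]

theorem it {ρ : Kb p → Kb p} (h1 : ∀ x, ρ (x ^ p) ^ p = ρ x) (e : ℕ) (x : Kb p) :
    ρ (x ^ p ^ e) ^ p ^ e = ρ x := by
  induction e with
  | zero => simp
  | succ e ih => rw [pow_succ, pow_mul x, mul_comm, pow_mul, h1, ih]

theorem one (j : L →ₐ[ZMod p] Kb p) (ρ : Kb p → Kb p) (h1 : ∀ x, ρ (x ^ p) ^ p = ρ x)
    (P : {P : L[X] // P.Monic}) : ∃ Q : {P : L[X] // P.Monic}, Q.1.natDegree = P.1.natDegree ∧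
      (Q.1.map (j : L →+* Kb p)).roots = (P.1.map (j : L →+* Kb p)).roots.map ρ := by
  set e := Module.finrank (ZMod p) L
  have hr := rng j (cd (p := p) (L := L))
  let φ : Kb p →+* Kb p := iterateFrobenius (Kb p) p e
  have hφ : ∀ x, φ x = x ^ p ^ e := fun x => iterateFrobenius_def _ _ _
  set s := (P.1.map (j : L →+* Kb p)).roots with hs
  have h2 : (P.1.map (j : L →+* Kb p)).map φ = P.1.map (j : L →+* Kb p) := by
    ext i
    rw [coeff_map, coeff_map, hφ]
    exact (hr _).2 ⟨_, rfl⟩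
  have h3 : s.map φ = s := by
    rw [hs, roots_map_of_injective_of_card_eq_natDegree φ.injective
      IsAlgClosed.card_roots_eq_natDegree, h2]
  have h4 : (s.map ρ).map φ = s.map ρ := by
    conv_lhs => rw [← h3]
    rw [Multiset.map_map, Multiset.map_map]
    exact Multiset.map_congr rfl fun x _ => by simp only [Function.comp, hφ, it h1]
  set Q := ((s.map ρ).map fun a => X - C a).prod with hQ
  have h5 : Q.map φ = Q := by
    conv_rhs => rw [hQ, ← h4]
    rw [hQ, Polynomial.map_multiset_prod, Multiset.map_map, Multiset.map_map (f := φ)]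
    simp
  have h6 : Q ∈ lifts (j : L →+* Kb p) := (lifts_iff_coeff_lifts Q).2 fun i =>
    (hr _).1 (by rw [← hφ, ← coeff_map, h5])
  obtain ⟨R, hR, hd, hm⟩ := lifts_and_natDegree_eq_and_monic h6
    (monic_multisetProd_X_sub_C _)
  refine ⟨⟨R, hm⟩, ?_, by rw [hR, hQ, roots_multiset_prod_X_sub_C]⟩
  rw [hd, hQ, natDegree_multiset_prod_X_sub_C_eq_card, Multiset.card_map, hs,
    IsAlgClosed.card_roots_eq_natDegree, natDegree_map]

end Taux

theorem emb (j : L →ₐ[ZMod p] Kb p) : ∃ e : ℕ, 0 < e ∧ Fintype.card L = p ^ e ∧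
    (∀ x : Kb p, x ^ p ^ e = x ↔ x ∈ Set.range j) ∧
    ∃ E : Fin e ≃ (L →ₐ[ZMod p] Kb p), ∀ i x, E i x = j x ^ p ^ (i : ℕ) := by
  classical
  refine ⟨Module.finrank (ZMod p) L, Module.finrank_pos, Taux.cd, Taux.rng j Taux.cd, ?_⟩
  let f : Fin (Module.finrank (ZMod p) L) → (L →ₐ[ZMod p] Kb p) := fun i =>
    j.comp (FiniteField.frobeniusAlgHom (ZMod p) L ^ (i : ℕ))
  have hf : Function.Bijective f := by
    rw [Fintype.bijective_iff_injective_and_card, AlgHom.card, Fintype.card_fin]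
    refine ⟨fun a b h => (FiniteField.bijective_frobeniusAlgHom_pow (ZMod p) L).1 ?_, rfl⟩
    exact AlgHom.ext fun x => j.injective (DFunLike.congr_fun h x)
  refine ⟨Equiv.ofBijective f hf, fun i x => ?_⟩
  show j ((FiniteField.frobeniusAlgHom (ZMod p) L ^ (i : ℕ)) x) = _
  rw [← map_pow j]
  congr 1
  induction (i : ℕ) with
  | zero => simp
  | succ n ih => rw [pow_succ', AlgHom.mul_apply, ih, pow_succ, pow_mul]; simp

theorem tau (j : L →ₐ[ZMod p] Kb p) (ρ : Equiv.Perm (Kb p)) (h1 : ∀ x, ρ (x ^ p) ^ p = ρ x) :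
    ∃ τ : Equiv.Perm {P : L[X] // P.Monic}, ∀ P, (τ P).1.natDegree = P.1.natDegree ∧
      ((τ P).1.map (j : L →+* Kb p)).roots = (P.1.map (j : L →+* Kb p)).roots.map ρ := by
  have h2 : ∀ y, ρ.symm (y ^ p) ^ p = ρ.symm y := fun y => by
    rw [Equiv.eq_symm_apply]
    apply frobenius_inj (Kb p) p
    rw [frobenius_def, frobenius_def, h1, Equiv.apply_symm_apply]
  choose T hT using Taux.one j ρ h1
  choose S hS using Taux.one j ρ.symm h2
  refine ⟨⟨T, S, fun P => Subtype.ext (Taux.uq j (S _).2 P.2 ?_),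
    fun P => Subtype.ext (Taux.uq j (T _).2 P.2 ?_)⟩, hT⟩
  · rw [(hS _).2, (hT _).2, Multiset.map_map]; simp
  · rw [(hT _).2, (hS _).2, Multiset.map_map]; simp

end CL.KGB
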