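import Cfsg.Agent.KGV.B.Defs

set_option autoImplicit false

namespace CL.KGB
open Polynomial Cfsg CL.VCh TensorProduct

variable {p : ℕ} [Fact p.Prime]
variable {W W' : Type*} [AddCommGroup W] [Module (Kb p) W] [Module.Finite (Kb p) W]
  [AddCommGroup W'] [Module (Kb p) W'] [Module.Finite (Kb p) W']

theorem th_one (D : Dat p) (y : Module.End (Kb p) W) : th D y 1 = 1 := by
  rw [th, dif_pos (Commute.one_right y)]
  refine Finset.prod_eq_one fun μ _ => ?_
  have : (1 : Module.End (Kb p) W).restrict
      (Module.End.mapsTo_maxGenEigenspace_of_comm (Commute.one_right y) μ) = 1 :=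
    LinearMap.ext fun _ => rfl
  rw [this, map_one, map_one, one_pow]

theorem th_mul (D : Dat p) {y g g' : Module.End (Kb p) W} (h : Commute y g) (h' : Commute y g') :
    th D y (g * g') = th D y g * th D y g' := by
  rw [th, th, th, dif_pos h, dif_pos h', dif_pos (h.mul_right h'), ← Finset.prod_mul_distrib]
  refine Finset.prod_congr rfl fun μ _ => ?_
  have : (g * g').restrict (Module.End.mapsTo_maxGenEigenspace_of_comm (h.mul_right h') μ) =
      g.restrict (Module.End.mapsTo_maxGenEigenspace_of_comm h μ) *
        g'.restrict (Module.End.mapsTo_maxGenEigenspace_of_comm h' μ) :=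
    LinearMap.ext fun _ => rfl
  rw [this, map_mul, map_mul, mul_pow]

theorem th_of_not (D : Dat p) {y g : Module.End (Kb p) W} (h : ¬ Commute y g) : th D y g = 0 := by
  rw [th, dif_neg h]

theorem wt_conj (D : Dat p) (e : W ≃ₗ[Kb p] W') (y : Module.End (Kb p) W) :
    wt D (e.conj y) = wt D y := by
  rw [wt, wt, LinearEquiv.charpoly_conj]

theorem mem_conj (e : W ≃ₗ[Kb p] W') (y : Module.End (Kb p) W) (μ : Kb p) (x : W) :
    e x ∈ Module.End.maxGenEigenspace (e.conj y) μ ↔ x ∈ y.maxGenEigenspace μ := by
  have key : ∀ k : ℕ, ((e.conj y - μ • (1 : Module.End (Kb p) W')) ^ k) (e x) =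
      e (((y - μ • (1 : Module.End (Kb p) W)) ^ k) x) := by
    intro k
    induction k with
    | zero => simp
    | succ k ih => simp [pow_succ', ih]
  simp only [Module.End.mem_maxGenEigenspace, key, map_eq_zero_iff e e.injective]

theorem th_conj (D : Dat p) (e : W ≃ₗ[Kb p] W') (y g : Module.End (Kb p) W) :
    th D (e.conj y) (e.conj g) = th D y g := by
  have hc : Commute (e.conj y) (e.conj g) ↔ Commute y g := by
    have hm : ∀ a b : Module.End (Kb p) W, e.conj a * e.conj b = e.conj (a * b) := fun a b =>
      LinearMap.ext fun x => by simp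
    rw [Commute, SemiconjBy, Commute, SemiconjBy, hm, hm, e.conj.injective.eq_iff]
  by_cases h : Commute y g
  · rw [th, th, dif_pos h, dif_pos (hc.2 h), LinearEquiv.charpoly_conj]
    refine Finset.prod_congr rfl fun μ _ => ?_
    have hmap : (y.maxGenEigenspace μ).map (e : W →ₗ[Kb p] W') =
        Module.End.maxGenEigenspace (e.conj y) μ := by
      ext x
      obtain ⟨x, rfl⟩ := e.surjective x
      rw [mem_conj]
      constructor
      · rintro ⟨z, hz, h2⟩
        obtain rfl := e.injective h2
        exact hz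
      · exact fun hx => ⟨x, hx, rfl⟩
    let e' := e.ofSubmodules _ _ hmap
    have : (e.conj g).restrict (Module.End.mapsTo_maxGenEigenspace_of_comm (hc.2 h) μ) =
        e'.conj (g.restrict (Module.End.mapsTo_maxGenEigenspace_of_comm h μ)) := by
      refine LinearMap.ext fun x => ?_
      obtain ⟨x, rfl⟩ := e'.surjective x
      rw [LinearEquiv.conj_apply_apply, e'.symm_apply_apply]
      refine Subtype.ext ?_
      change e.conj g (e x) = e (g x)
      simp
    rw [this]
    exact congrArg (fun t => D.ι t ^ D.c μ) (LinearMap.det_conj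
      (g.restrict (Module.End.mapsTo_maxGenEigenspace_of_comm h μ)) e')
  · rw [th_of_not D h, th_of_not D (mt hc.1 h)]

theorem wg_conj (D : Dat p) (e : W ≃ₗ[Kb p] W') (y g : Module.End (Kb p) W) :
    wg D (e.conj y) (e.conj g) = wg D y g := by
  rw [wg, wg, wt_conj, th_conj]

theorem wt0_int (D : Dat p) (μ : Kb p) : IsIntegral ℤ (wt0 D μ) := by
  unfold wt0
  split_ifs
  · exact isIntegral_zero
  · refine IsIntegral.of_pow (Fact.out : p.Prime).pos ?_
    rw [← AddChar.map_nsmul_eq_pow, nsmul_eq_mul, CharP.cast_eq_zero, zero_mul,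
      AddChar.map_zero_eq_one]
    exact isIntegral_one

theorem wt_int (D : Dat p) (y : Module.End (Kb p) W) : IsIntegral ℤ (wt D y) := by
  refine IsIntegral.multiset_prod fun x hx => ?_
  obtain ⟨μ, -, rfl⟩ := Multiset.mem_map.1 hx
  exact wt0_int D μ

theorem wg_smul (D : Dat p) (y : Module.End (Kb p) W) (l : Kb p) :
    wg D y (l • (1 : Module.End (Kb p) W)) = (y.charpoly.roots.map (cc D l)).prod := by
  classical
  have h : Commute y (l • (1 : Module.End (Kb p) W)) := (Commute.one_right y).smul_right l
  have h1 : y.charpoly.roots.map (cc D l) =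
      y.charpoly.roots.map fun μ => wt0 D μ * D.ι l ^ D.c μ := rfl
  rw [wg, wt, th, dif_pos h, h1, Multiset.prod_map_mul, Finset.prod_multiset_map_count
    (f := fun μ => D.ι l ^ D.c μ)]
  congr 1
  refine Finset.prod_congr (by congr) fun μ _ => ?_
  have : (l • (1 : Module.End (Kb p) W)).restrict
      (Module.End.mapsTo_maxGenEigenspace_of_comm h μ) = l • 1 :=
    LinearMap.ext fun _ => rfl
  rw [this, LinearMap.det_smul, map_one, mul_one, LinearMap.finrank_maxGenEigenspace_eq,
    count_roots, map_pow, ← pow_mul, ← pow_mul, mul_comm]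

end CL.KGB
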