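import Cfsg.Agent.KGV.B.Th

set_option autoImplicit false

namespace CL.KGB
open Polynomial Cfsg CL.VCh TensorProduct

variable {p : ℕ} [Fact p.Prime]
variable {W W' : Type*} [AddCommGroup W] [Module (Kb p) W] [Module.Finite (Kb p) W]
  [AddCommGroup W'] [Module (Kb p) W'] [Module.Finite (Kb p) W']

omit [Module.Finite (Kb p) W] [Module.Finite (Kb p) W'] in
theorem wp_pow (a : Module.End (Kb p) W) (b : Module.End (Kb p) W') (k : ℕ) (v : W × W') :
    ((a.prodMap b : Module.End (Kb p) (W × W')) ^ k) v = ((a ^ k) v.1, (b ^ k) v.2) := by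
  induction k with
  | zero => simp
  | succ k ih => simp [pow_succ', ih]

omit [Module.Finite (Kb p) W] [Module.Finite (Kb p) W'] in
theorem wp_mem (y : Module.End (Kb p) W) (y' : Module.End (Kb p) W') (μ : Kb p) (v : W × W') :
    v ∈ Module.End.maxGenEigenspace (y.prodMap y' : Module.End (Kb p) (W × W')) μ ↔
      v.1 ∈ y.maxGenEigenspace μ ∧ v.2 ∈ y'.maxGenEigenspace μ := by
  have e : (y.prodMap y' : Module.End (Kb p) (W × W')) - μ • 1 =
      (y - μ • 1).prodMap (y' - μ • 1) := by
    ext v <;> simp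
  simp only [Module.End.mem_maxGenEigenspace, e, wp_pow, Prod.mk_eq_zero]
  constructor
  · rintro ⟨k, h1, h2⟩
    exact ⟨⟨k, h1⟩, ⟨k, h2⟩⟩
  · rintro ⟨⟨k, h1⟩, ⟨l, h2⟩⟩
    refine ⟨k + l, ?_, ?_⟩
    · rw [add_comm, pow_add, Module.End.mul_apply, h1, map_zero]
    · rw [pow_add, Module.End.mul_apply, h2, map_zero]

omit [Module.Finite (Kb p) W] [Module.Finite (Kb p) W'] in
theorem wp_comm {y g : Module.End (Kb p) W} {y' g' : Module.End (Kb p) W'} :
    Commute (y.prodMap y' : Module.End (Kb p) (W × W')) (g.prodMap g') ↔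
      Commute y g ∧ Commute y' g' := by
  constructor
  · intro h
    refine ⟨LinearMap.ext fun v => ?_, LinearMap.ext fun v => ?_⟩
    · simpa using congrArg Prod.fst (LinearMap.congr_fun h.eq (v, 0))
    · simpa using congrArg Prod.snd (LinearMap.congr_fun h.eq (0, v))
  · rintro ⟨h1, h2⟩
    show _ * _ = _ * _
    rw [LinearMap.prodMap_mul, LinearMap.prodMap_mul, h1.eq, h2.eq]

theorem wp_det {y g : Module.End (Kb p) W} {y' g' : Module.End (Kb p) W'} (h : Commute y g)
    (h' : Commute y' g') (μ : Kb p) :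
    LinearMap.det ((g.prodMap g' : Module.End (Kb p) (W × W')).restrict
      (Module.End.mapsTo_maxGenEigenspace_of_comm (wp_comm.2 ⟨h, h'⟩) μ)) =
    LinearMap.det (g.restrict (Module.End.mapsTo_maxGenEigenspace_of_comm h μ)) *
      LinearMap.det (g'.restrict (Module.End.mapsTo_maxGenEigenspace_of_comm h' μ)) := by
  let e : (y.maxGenEigenspace μ × y'.maxGenEigenspace μ) ≃ₗ[Kb p]
      Module.End.maxGenEigenspace (y.prodMap y' : Module.End (Kb p) (W × W')) μ :=
    { toFun := fun v => ⟨(v.1.1, v.2.1), (wp_mem y y' μ _).2 ⟨v.1.2, v.2.2⟩⟩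
      invFun := fun v => (⟨v.1.1, ((wp_mem y y' μ _).1 v.2).1⟩, ⟨v.1.2, ((wp_mem y y' μ _).1 v.2).2⟩)
      map_add' := fun _ _ => rfl
      map_smul' := fun _ _ => rfl
      left_inv := fun _ => rfl
      right_inv := fun _ => rfl }
  rw [← LinearMap.det_prodMap, ← LinearMap.det_conj _ e]
  rfl

theorem wp_th (D : Dat p) {y g : Module.End (Kb p) W} (h : Commute y g) (S : Finset (Kb p))
    (hS : ∀ μ ∈ y.charpoly.roots, μ ∈ S) : th D y g = ∏ μ ∈ S,
      D.ι (LinearMap.det (g.restrict (Module.End.mapsTo_maxGenEigenspace_of_comm h μ))) ^ D.c μ := by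
  classical
  rw [th, dif_pos h]
  refine Finset.prod_subset (fun μ hμ => hS μ (Multiset.mem_toFinset.1 hμ)) fun μ _ hμ => ?_
  have h0 : Module.finrank (Kb p) (y.maxGenEigenspace μ) = 0 := by
    rw [LinearMap.finrank_maxGenEigenspace_eq, ← count_roots]
    exact Multiset.count_eq_zero.2 fun h1 => hμ (Multiset.mem_toFinset.2 h1)
  rw [LinearMap.det_eq_one_of_finrank_eq_zero h0, map_one, one_pow]

theorem wg_prod (D : Dat p) (y g : Module.End (Kb p) W) (y' g' : Module.End (Kb p) W') :
    wg D (y.prodMap y') (g.prodMap g') = wg D y g * wg D y' g' := by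
  classical
  have hr : (LinearMap.charpoly (y.prodMap y' : Module.End (Kb p) (W × W'))).roots =
      y.charpoly.roots + y'.charpoly.roots := by
    rw [LinearMap.charpoly_prodMap, roots_mul
      (mul_ne_zero y.charpoly_monic.ne_zero y'.charpoly_monic.ne_zero)]
  have hw : wt D (y.prodMap y' : Module.End (Kb p) (W × W')) = wt D y * wt D y' := by
    rw [wt, hr, Multiset.map_add, Multiset.prod_add, wt, wt]
  have ht : th D (y.prodMap y' : Module.End (Kb p) (W × W')) (g.prodMap g') =
      th D y g * th D y' g' := by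
    by_cases h : Commute y g ∧ Commute y' g'
    · let S := (y.charpoly.roots + y'.charpoly.roots).toFinset
      rw [wp_th D (wp_comm.2 h) S (fun μ hμ => Multiset.mem_toFinset.2 (hr ▸ hμ)),
        wp_th D h.1 S (fun μ hμ => Multiset.mem_toFinset.2 (Multiset.mem_add.2 (Or.inl hμ))),
        wp_th D h.2 S (fun μ hμ => Multiset.mem_toFinset.2 (Multiset.mem_add.2 (Or.inr hμ))),
        ← Finset.prod_mul_distrib]
      refine Finset.prod_congr rfl fun μ _ => ?_
      rw [wp_det h.1 h.2, map_mul, mul_pow]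
    · rw [th, dif_neg (fun h1 => h (wp_comm.1 h1))]
      rcases not_and_or.1 h with h1 | h1
      · rw [th, dif_neg h1, zero_mul]
      · rw [th, th, dif_neg h1, mul_zero]
  rw [wg, hw, ht, wg, wg]
  ring

end CL.KGB
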